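import Cfsg.Agent.Lib.Helper73.HA.Defs
import Cfsg.Agent.Lib.Helper82.HT.Cycles

/-!
# Project HA, package 1Bc (helper27)
-/

set_option autoImplicit false

namespace Cfsg.Agent.Lib.Helper27.HA

open Equiv

universe u

/-- `(0 1)(2 3)` -/
def s5 : Perm (Fin 5) := swap 0 1 * swap 2 3

/-- `(0 2)(1 3)` -/
def t5 : Perm (Fin 5) := swap 0 2 * swap 1 3

/-- The four-group on `{0,1,2,3}` inside `Perm (Fin 5)`. -/
def V5 : Subgroup (Perm (Fin 5)) where
  carrier := {σ | σ = 1 ∨ σ = s5 ∨ σ = t5 ∨ σ = s5 * t5}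
  mul_mem' := by
    rintro a b (rfl | rfl | rfl | rfl) (rfl | rfl | rfl | rfl) <;>
      (show _ = _ ∨ _ = _ ∨ _ = _ ∨ _ = _) <;> decide
  one_mem' := Or.inl rfl
  inv_mem' := by
    rintro a (rfl | rfl | rfl | rfl) <;>
      (show _ = _ ∨ _ = _ ∨ _ = _ ∨ _ = _) <;> decide

theorem v5_pgroup : IsPGroup 2 V5 := by
  rintro ⟨σ, hσ⟩
  refine ⟨1, Subtype.ext ?_⟩
  rw [Subgroup.coe_pow, Subgroup.coe_one, pow_one]
  show σ ^ 2 = 1
  rcases hσ with rfl | rfl | rfl | rfl <;> decide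

/-- Package 1Bc of project HA. -/
theorem lem1Bc : Cfsg.Agent.Lib.Helper73.HA.Lem1Bc.{u} := by
  intro Ω _ _ π K hK h2 hn
  have : Fact (Nat.Prime 2) := ⟨Nat.prime_two⟩
  obtain ⟨ι⟩ : Nonempty (Fin 5 ↪ Ω) :=
    Function.Embedding.nonempty_of_card_le (by simpa using hn)
  have hφinj : Function.Injective (Perm.viaEmbeddingHom ι) := Perm.viaEmbeddingHom_injective ι
  have hφapp : ∀ (σ : Perm (Fin 5)) (x : Fin 5), Perm.viaEmbeddingHom ι σ (ι x) = ι (σ x) :=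
    fun σ x => Perm.viaEmbedding_apply σ ι x
  have hφsign : ∀ σ : Perm (Fin 5), Perm.sign (Perm.viaEmbeddingHom ι σ) = Perm.sign σ := by
    intro σ
    rw [Perm.viaEmbeddingHom_apply]
    unfold Perm.viaEmbedding
    exact @Perm.sign_extendDomain _ _ _ _ _ _ σ _ (fun a => Classical.propDecidable _)
      (ofInjective ι.1 ι.2)
  have hV : IsPGroup 2 ((V5.map (Perm.viaEmbeddingHom ι)).subgroupOf (alternatingGroup Ω)) :=
    (v5_pgroup.map (Perm.viaEmbeddingHom ι)).comap_of_injective (alternatingGroup Ω).subtype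
      (alternatingGroup Ω).subtype_injective
  have hidx : ¬ 2 ∣ (K.subgroupOf (alternatingGroup Ω)).index := hK.2.2 2 Nat.prime_two h2
  obtain ⟨g, hg⟩ := Cfsg.Agent.Lib.Helper82.HT.exists_conj_le_of_pgroup
    (K.subgroupOf (alternatingGroup Ω))
    ((V5.map (Perm.viaEmbeddingHom ι)).subgroupOf (alternatingGroup Ω)) 2 hV hidx
  have hsA : Perm.viaEmbeddingHom ι s5 ∈ alternatingGroup Ω := by
    rw [Perm.mem_alternatingGroup, hφsign]; decide
  have htA : Perm.viaEmbeddingHom ι t5 ∈ alternatingGroup Ω := by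
    rw [Perm.mem_alternatingGroup, hφsign]; decide
  have hs := hg ⟨Perm.viaEmbeddingHom ι s5, hsA⟩
    (show Perm.viaEmbeddingHom ι s5 ∈ V5.map (Perm.viaEmbeddingHom ι) from
      Subgroup.mem_map_of_mem _ (Or.inr (Or.inl rfl)))
  have ht := hg ⟨Perm.viaEmbeddingHom ι t5, htA⟩
    (show Perm.viaEmbeddingHom ι t5 ∈ V5.map (Perm.viaEmbeddingHom ι) from
      Subgroup.mem_map_of_mem _ (Or.inr (Or.inr (Or.inl rfl))))
  have hs' : (g : Perm Ω) * Perm.viaEmbeddingHom ι s5 * (g : Perm Ω)⁻¹ ∈ K := hs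
  have ht' : (g : Perm Ω) * Perm.viaEmbeddingHom ι t5 * (g : Perm Ω)⁻¹ ∈ K := ht
  refine ⟨(g : Perm Ω) * Perm.viaEmbeddingHom ι s5 * (g : Perm Ω)⁻¹,
    (g : Perm Ω) * Perm.viaEmbeddingHom ι t5 * (g : Perm Ω)⁻¹, (g : Perm Ω) (ι 4), hs', ht',
    ?_, ?_, ?_, ?_, ?_, ?_, ?_⟩
  · have h4 : s5 4 = 4 := by decide
    have h5 : (g : Perm Ω)⁻¹ ((g : Perm Ω) (ι 4)) = ι 4 := by
      rw [← Perm.mul_apply, inv_mul_cancel, Perm.one_apply]
    rw [Perm.mul_apply, Perm.mul_apply, h5, hφapp, h4]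
  · have h4 : t5 4 = 4 := by decide
    have h5 : (g : Perm Ω)⁻¹ ((g : Perm Ω) (ι 4)) = ι 4 := by
      rw [← Perm.mul_apply, inv_mul_cancel, Perm.one_apply]
    rw [Perm.mul_apply, Perm.mul_apply, h5, hφapp, h4]
  · have h1 : s5 * s5 = 1 := by decide
    have h3 : Perm.viaEmbeddingHom ι s5 * Perm.viaEmbeddingHom ι s5 = 1 := by
      rw [← map_mul, h1, map_one]
    calc (g : Perm Ω) * Perm.viaEmbeddingHom ι s5 * (g : Perm Ω)⁻¹ *
          ((g : Perm Ω) * Perm.viaEmbeddingHom ι s5 * (g : Perm Ω)⁻¹)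
        = (g : Perm Ω) * (Perm.viaEmbeddingHom ι s5 * Perm.viaEmbeddingHom ι s5) *
          (g : Perm Ω)⁻¹ := by group
      _ = 1 := by rw [h3]; group
  · have h1 : t5 * t5 = 1 := by decide
    have h3 : Perm.viaEmbeddingHom ι t5 * Perm.viaEmbeddingHom ι t5 = 1 := by
      rw [← map_mul, h1, map_one]
    calc (g : Perm Ω) * Perm.viaEmbeddingHom ι t5 * (g : Perm Ω)⁻¹ *
          ((g : Perm Ω) * Perm.viaEmbeddingHom ι t5 * (g : Perm Ω)⁻¹)
        = (g : Perm Ω) * (Perm.viaEmbeddingHom ι t5 * Perm.viaEmbeddingHom ι t5) *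
          (g : Perm Ω)⁻¹ := by group
      _ = 1 := by rw [h3]; group
  · intro h
    have h1 : Perm.viaEmbeddingHom ι s5 = 1 := by
      have h0 := congrArg (fun x => (g : Perm Ω)⁻¹ * x * (g : Perm Ω)) h
      simpa [mul_assoc] using h0
    have h3 : s5 = 1 := hφinj (by rw [h1, map_one])
    exact absurd h3 (by decide)
  · intro h
    have h1 : Perm.viaEmbeddingHom ι t5 = 1 := by
      have h0 := congrArg (fun x => (g : Perm Ω)⁻¹ * x * (g : Perm Ω)) h
      simpa [mul_assoc] using h0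
    have h3 : t5 = 1 := hφinj (by rw [h1, map_one])
    exact absurd h3 (by decide)
  · intro h
    have h1 : Perm.viaEmbeddingHom ι s5 = Perm.viaEmbeddingHom ι t5 := by
      have h0 := congrArg (fun x => (g : Perm Ω)⁻¹ * x * (g : Perm Ω)) h
      simpa [mul_assoc] using h0
    exact absurd (hφinj h1) (by decide)

end Cfsg.Agent.Lib.Helper27.HA
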