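import Cfsg.Agent.Lib.Helper73.HA.Defs

/-!
# Project HA, package S3 (helper27)
-/

set_option autoImplicit false

namespace Cfsg.Agent.Lib.Helper27.HA

open Equiv

universe u

section
variable {Ω : Type u} [Fintype Ω] [DecidableEq Ω]

/-- "The stabilizer of `a` in `K` is the group of even permutations fixing `a` and `b`". -/
def StabIs (K : Subgroup (Perm Ω)) (a b : Ω) : Prop :=
  ∀ g : Perm Ω, (g ∈ K ∧ g a = a) ↔ (g ∈ alternatingGroup Ω ∧ g a = a ∧ g b = b)

theorem stabIs_conj {K : Subgroup (Perm Ω)} {a b : Ω} (h : StabIs K a b) {k : Perm Ω}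
    (hk : k ∈ K) : StabIs K (k a) (k b) := by
  intro g
  have h1 := h (k⁻¹ * g * k)
  have e1 : (k⁻¹ * g * k ∈ K) ↔ g ∈ K := by
    constructor
    · intro hg
      have h2 : k * (k⁻¹ * g * k) * k⁻¹ ∈ K := K.mul_mem (K.mul_mem hk hg) (K.inv_mem hk)
      have h3 : k * (k⁻¹ * g * k) * k⁻¹ = g := by group
      rwa [h3] at h2
    · intro hg
      exact K.mul_mem (K.mul_mem (K.inv_mem hk) hg) hk
  have e2 : (k⁻¹ * g * k ∈ alternatingGroup Ω) ↔ g ∈ alternatingGroup Ω := by
    rw [Equiv.Perm.mem_alternatingGroup, Equiv.Perm.mem_alternatingGroup]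
    rw [Perm.sign_mul, Perm.sign_mul, Perm.sign_inv, mul_comm (Perm.sign k) (Perm.sign g),
      mul_assoc, Int.units_mul_self, mul_one]
  have e3 : ∀ x : Ω, (k⁻¹ * g * k) x = x ↔ g (k x) = k x := by
    intro x
    simp only [Perm.mul_apply]
    rw [Perm.inv_eq_iff_eq]
  rw [e1, e2, e3, e3] at h1
  exact h1

theorem exists_even_moving (hn : 5 ≤ Fintype.card Ω) (a b c : Ω) (hca : c ≠ a) (hcb : c ≠ b) :
    ∃ t : Perm Ω, t ∈ alternatingGroup Ω ∧ t a = a ∧ t b = b ∧ t c ≠ c := by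
  have hcard : 1 < ((Finset.univ : Finset Ω) \ {a, b, c}).card := by
    have h1 := Finset.le_card_sdiff ({a, b, c} : Finset Ω) Finset.univ
    have h2 : ({a, b, c} : Finset Ω).card ≤ 3 := Finset.card_le_three
    rw [Finset.card_univ] at h1
    omega
  obtain ⟨d, hd, e, he, hde⟩ := Finset.one_lt_card.mp hcard
  simp only [Finset.mem_sdiff, Finset.mem_univ, true_and, Finset.mem_insert,
    Finset.mem_singleton, not_or] at hd he
  refine ⟨swap c d * swap d e, ?_, ?_, ?_, ?_⟩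
  · rw [Equiv.Perm.mem_alternatingGroup, Perm.sign_mul, Perm.sign_swap (Ne.symm hd.2.2),
      Perm.sign_swap hde]
    rfl
  · rw [Perm.mul_apply, swap_apply_of_ne_of_ne (Ne.symm hd.1) (Ne.symm he.1),
      swap_apply_of_ne_of_ne (Ne.symm hca) (Ne.symm hd.1)]
  · rw [Perm.mul_apply, swap_apply_of_ne_of_ne (Ne.symm hd.2.1) (Ne.symm he.2.1),
      swap_apply_of_ne_of_ne (Ne.symm hcb) (Ne.symm hd.2.1)]
  · rw [Perm.mul_apply, swap_apply_of_ne_of_ne (Ne.symm hd.2.2) (Ne.symm he.2.2),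
      swap_apply_left]
    exact hd.2.2

theorem stabIs_unique (hn : 5 ≤ Fintype.card Ω) {K : Subgroup (Perm Ω)} {a b b' : Ω}
    (h : StabIs K a b) (h' : StabIs K a b') (hab' : b' ≠ a) : b' = b := by
  by_contra hne
  obtain ⟨t, ht, hta, htb, htc⟩ := exists_even_moving hn a b b' hab' hne
  have h1 := (h t).mpr ⟨ht, hta, htb⟩
  have h2 := (h' t).mp h1
  exact htc h2.2.2

theorem stabIs_symm (hn : 5 ≤ Fintype.card Ω) {K : Subgroup (Perm Ω)}
    (htr : ∀ x y : Ω, ∃ k ∈ K, k x = y) {a b : Ω} (h : StabIs K a b) (hab : a ≠ b) :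
    StabIs K b a := by
  obtain ⟨g, hg, hgab⟩ := htr a b
  have h1 := stabIs_conj h hg
  rw [hgab] at h1
  have hgb : g b ≠ b := by
    intro h2
    have h3 : g b = g a := by rw [h2, hgab]
    exact hab (g.injective h3).symm
  have hgba : g b = a := by
    by_contra hne
    obtain ⟨t, ht, hta, htb, htc⟩ := exists_even_moving hn a b (g b) hne hgb
    have h2 := (h t).mpr ⟨ht, hta, htb⟩
    have h3 := (h1 t).mp ⟨h2.1, htb⟩
    exact htc h3.2.2
  rw [hgba] at h1
  exact h1

end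

/-- Package S3 of project HA. -/
theorem lemS3 : Cfsg.Agent.Lib.Helper73.HA.LemS3.{u} := by
  intro Ω _ _ K ω ω' hn hne htr hst
  have P1 : StabIs K ω ω' := hst
  have P2 : StabIs K ω' ω := stabIs_symm hn htr P1 hne
  have hcard : 0 < ((Finset.univ : Finset Ω) \ {ω, ω'}).card := by
    have h1 := Finset.le_card_sdiff ({ω, ω'} : Finset Ω) Finset.univ
    have h2 : ({ω, ω'} : Finset Ω).card ≤ 2 := Finset.card_le_two
    rw [Finset.card_univ] at h1
    omega
  obtain ⟨x, hx⟩ := Finset.card_pos.mp hcard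
  simp only [Finset.mem_sdiff, Finset.mem_univ, true_and, Finset.mem_insert,
    Finset.mem_singleton, not_or] at hx
  obtain ⟨h, hh, hhx⟩ := htr ω x
  have Q1 : StabIs K x (h ω') := by
    have h0 := stabIs_conj P1 hh
    rwa [hhx] at h0
  have Q2 : StabIs K (h ω') x := by
    have h0 := stabIs_conj P2 hh
    rwa [hhx] at h0
  have hxy : h ω' ≠ x := by
    intro h2
    rw [← hhx] at h2
    exact hne (h.injective h2).symm
  have hy1 : h ω' ≠ ω' := by
    intro h2
    rw [h2] at Q2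
    exact hx.1 (stabIs_unique hn P2 Q2 hx.2)
  have hy2 : h ω' ≠ ω := by
    intro h2
    rw [h2] at Q2
    exact hx.2 (stabIs_unique hn P1 Q2 hx.1)
  generalize h ω' = y at Q1 Q2 hxy hy1 hy2
  have hcard2 : 0 < ((Finset.univ : Finset Ω) \ {ω, ω', x, y}).card := by
    have h1 := Finset.le_card_sdiff ({ω, ω', x, y} : Finset Ω) Finset.univ
    have h2 : ({ω, ω', x, y} : Finset Ω).card ≤ 4 := Finset.card_le_four
    rw [Finset.card_univ] at h1
    omega
  obtain ⟨z, hz⟩ := Finset.card_pos.mp hcard2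
  simp only [Finset.mem_sdiff, Finset.mem_univ, true_and, Finset.mem_insert,
    Finset.mem_singleton, not_or] at hz
  have hcK : swap x y * swap y z ∈ K := by
    refine ((P1 (swap x y * swap y z)).mpr ⟨?_, ?_, ?_⟩).1
    · rw [Equiv.Perm.mem_alternatingGroup, Perm.sign_mul, Perm.sign_swap (Ne.symm hxy),
        Perm.sign_swap (Ne.symm hz.2.2.2)]
      rfl
    · rw [Perm.mul_apply, swap_apply_of_ne_of_ne (Ne.symm hy2) (Ne.symm hz.1),
        swap_apply_of_ne_of_ne (Ne.symm hx.1) (Ne.symm hy2)]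
    · rw [Perm.mul_apply, swap_apply_of_ne_of_ne (Ne.symm hy1) (Ne.symm hz.2.1),
        swap_apply_of_ne_of_ne (Ne.symm hx.2) (Ne.symm hy1)]
  have R := stabIs_conj Q1 hcK
  have hcx : (swap x y * swap y z) x = y := by
    rw [Perm.mul_apply, swap_apply_of_ne_of_ne (Ne.symm hxy) (Ne.symm hz.2.2.1),
      swap_apply_left]
  have hcy : (swap x y * swap y z) y = z := by
    rw [Perm.mul_apply, swap_apply_left, swap_apply_of_ne_of_ne hz.2.2.1 hz.2.2.2]
  rw [hcx, hcy] at R
  exact hz.2.2.1 (stabIs_unique hn Q2 R hz.2.2.2)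

end Cfsg.Agent.Lib.Helper27.HA
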