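import Cfsg.Agent.Lib.Helper73.HA.Defs2

/-!
# Project HA, package S2534OF (helper27): assembly of S2534 from the packages.
-/

set_option autoImplicit false

namespace Cfsg.Agent.Lib.Helper27.HA

open Equiv
open Cfsg.Agent.Lib.Helper73.HA

theorem prime_le_of_dvd_card_alt (n : ℕ) {p : ℕ} (hp : p.Prime)
    (h : p ∣ Nat.card ↥(alternatingGroup (Fin n))) : p ≤ n := by
  have h1 : Nat.card ↥(alternatingGroup (Fin n)) ∣ Nat.card (Perm (Fin n)) :=
    Subgroup.card_subgroup_dvd_card _
  rw [Nat.card_perm, Nat.card_fin] at h1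
  exact (Nat.Prime.dvd_factorial hp).mp (h.trans h1)

theorem s2534_of (hA : ThmAll.{0}) (hS : HallStruct.{0}) (hB : LemBridge.{0})
    (hD1 : LemDOne.{0}) (hD2 : LemDAll.{0}) (hDH : LemDHall.{0}) (hW : LemWPrime.{0})
    (hW78 : LemW78.{0}) : S2534Stmt := by
  intro n hn π
  constructor
  · intro hD
    by_contra hcon
    rw [not_or] at hcon
    obtain ⟨hc1, hc2⟩ := hcon
    push Not at hc1 hc2
    obtain ⟨r, s, hr, hs, hrπ, hsπ, hrd, hsd, hrs⟩ := hc1
    obtain ⟨t, ht, htd, htπ⟩ := hc2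
    have hrn := prime_le_of_dvd_card_alt n hr hrd
    have hsn := prime_le_of_dvd_card_alt n hs hsd
    have htn := prime_le_of_dvd_card_alt n ht htd
    obtain ⟨K, hK, hcov⟩ := hDH ↥(alternatingGroup (Fin n)) π hD
    have hK₀ := (hB (Perm (Fin n)) π (alternatingGroup (Fin n)) K).mp hK
    obtain ⟨M, hM, hMK⟩ := hA (Fin n) π _ hK₀
    have key : ∀ H₀ : Subgroup (Perm (Fin n)), H₀ ≤ alternatingGroup (Fin n) →
        (∀ p : ℕ, p.Prime → p ∣ Nat.card H₀ → p ∈ π) →
        ∃ g : Perm (Fin n), ∀ h ∈ H₀, ∃ k ∈ M, h = g * k * g⁻¹ := by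
      intro H₀ hle hpi
      have hpi' : Cfsg.IsPiSubgroup π (H₀.subgroupOf (alternatingGroup (Fin n))) := by
        intro p hp hdvd
        rw [Nat.card_congr (Subgroup.subgroupOfEquivOfLe hle).toEquiv] at hdvd
        exact hpi p hp hdvd
      obtain ⟨g, hg⟩ := hcov _ hpi'
      refine ⟨(g : Perm (Fin n)), fun h hh => ?_⟩
      have h1 : (⟨h, hle hh⟩ : ↥(alternatingGroup (Fin n))) ∈
          H₀.subgroupOf (alternatingGroup (Fin n)) := by
        rw [Subgroup.mem_subgroupOf]; exact hh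
      obtain ⟨k, hk, hkeq⟩ := hg h1
      have hkM : (k : Perm (Fin n)) ∈ M := by
        have h2 : (k : Perm (Fin n)) ∈ K.map (alternatingGroup (Fin n)).subtype :=
          Subgroup.mem_map_of_mem _ hk
        rw [← hMK] at h2
        exact h2.1
      refine ⟨k, hkM, ?_⟩
      have h3 := congrArg Subtype.val hkeq
      simpa [MulAut.conj_apply] using h3.symm
    rcases hS (Fin n) π M hM with h1 | h2 | h3 | h4 | h5
    · simp only [Fintype.card_fin] at h1
      exact hrs (h1 r s hr hs hrπ hsπ hrn hsn)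
    · simp only [Fintype.card_fin] at h2
      exact htπ (h2 t ht htn)
    · simp only [Fintype.card_fin] at h3
      obtain ⟨hnp, hπ, ω, hω⟩ := h3
      obtain ⟨H₀, hle, hpi, hmove⟩ := hW (Fin n) π (by simpa using hn) (by
        intro r hr hrn
        simp only [Fintype.card_fin] at hrn
        exact (hπ r hr (by omega)).mpr (by omega))
      obtain ⟨g, hg⟩ := key H₀ hle hpi
      obtain ⟨h, hh, hne⟩ := hmove (g ω)
      obtain ⟨k, hk, rfl⟩ := hg h hh
      apply hne
      have hkω : k ω = ω := (hω k).mp hk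
      simp [Perm.mul_apply, hkω]
    · simp only [Fintype.card_fin] at h4
      obtain ⟨hn7, hπ, s, hs4, hsM⟩ := h4
      have h2π : 2 ∈ π := (hπ 2 Nat.prime_two (by norm_num)).mpr (Or.inl rfl)
      have h3π : 3 ∈ π := (hπ 3 Nat.prime_three (by norm_num)).mpr (Or.inr rfl)
      obtain ⟨H₀, hle, hpi, hbad⟩ := hW78 (Fin n) π (Or.inl (by simpa using hn7)) h2π h3π
      obtain ⟨g, hg⟩ := key H₀ hle hpi
      obtain ⟨h, hh, hne⟩ := hbad (s.map g.toEmbedding) (by rw [Finset.card_map, hs4])
      obtain ⟨k, hk, rfl⟩ := hg h hh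
      apply hne
      left
      intro x
      have hks := (hsM k).mp hk
      rw [Finset.mem_map_equiv, Finset.mem_map_equiv]
      have h6 : g.symm ((g * k * g⁻¹) x) = k (g.symm x) := by
        simp [Perm.mul_apply]
      rw [h6]
      exact hks _
    · simp only [Fintype.card_fin] at h5
      obtain ⟨hn8, hπ, s, hs4, hsM⟩ := h5
      have h2π : 2 ∈ π := (hπ 2 Nat.prime_two (by norm_num)).mpr (Or.inl rfl)
      have h3π : 3 ∈ π := (hπ 3 Nat.prime_three (by norm_num)).mpr (Or.inr rfl)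
      obtain ⟨H₀, hle, hpi, hbad⟩ := hW78 (Fin n) π (Or.inr (by simpa using hn8)) h2π h3π
      obtain ⟨g, hg⟩ := key H₀ hle hpi
      obtain ⟨h, hh, hne⟩ := hbad (s.map g.toEmbedding) (by rw [Finset.card_map, hs4])
      obtain ⟨k, hk, rfl⟩ := hg h hh
      apply hne
      have h6 : ∀ x, g.symm ((g * k * g⁻¹) x) = k (g.symm x) := by
        intro x
        simp [Perm.mul_apply]
      rcases (hsM k).mp hk with hks | hks
      · left
        intro x
        rw [Finset.mem_map_equiv, Finset.mem_map_equiv, h6]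
        exact hks _
      · right
        intro x
        rw [Finset.mem_map_equiv, Finset.mem_map_equiv, h6]
        exact hks _
  · rintro (h | h)
    · exact hD1 _ π h
    · exact hD2 _ π h

end Cfsg.Agent.Lib.Helper27.HA
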